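import Cfsg.Agent.Chev.Ree4.Data
import Cfsg.Agent.Chev.AutThm.TwNg
import Cfsg.Agent.Chev.FieldMap
import Cfsg.Agent.AutPSL.Card
import Cfsg.Prelude.Def_KGroupFacts

/-! The automorphisms of the Ree groups of type `F₄`. -/

set_option autoImplicit false
set_option maxRecDepth 100000
set_option linter.style.haveILetI false
set_option linter.unusedSectionVars false

namespace CfsgLib.Chev.Ree4

open Cfsg.Lie CfsgLib.Chev Matrix

universe u

theorem longest_neg_aux : ∀ r : Fin chevF4.nroots,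
    wdata.{u}.wT [0, 1, 0, 1, 0, 1, 0, 1] r = SF.{u}.ng r := by decide +kernel

theorem longest_neg : Twisted.LongestNeg (wdata.{u}) := by
  intro w hw hflip r
  set w₀ := wdata.{u}.wT [0, 1, 0, 1, 0, 1, 0, 1]
  have h0 : w₀ ∈ wdata.{u}.good := wdata.{u}.wT_mem _
  have h1 : w₀ * w = 1 := by
    refine SF.eq_one_of_simple_pos (wdata.{u}.good_le (mul_mem h0 hw)) fun i => ?_
    rw [Equiv.Perm.mul_apply, longest_neg_aux, SF.pos_ng]
    exact hflip _ (SF.sr_pos i)
  have h2 : SF.{u}.ng (w r) = r := by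
    rw [← longest_neg_aux, ← Equiv.Perm.mul_apply, h1, Equiv.Perm.one_apply]
  rw [← SF.{u}.ng_ng (w r), h2]

theorem lj_inj : Function.Injective (wdata.{u}.lj) := by
  intro a b
  fin_cases a <;> fin_cases b <;> simp [wdata]

theorem wJ0_25 : (wdata.{u}.wJ 0 ⟨25, by decide⟩ : ℕ) = 26 := by decide +kernel

theorem vec26 : (List.range 4).map (SF.{u}.vec 26) = [0, 0, 1, 1] := by decide +kernel

variable {K : Type u} [Field K] [Finite K] [CharP K 2] (m : ℕ)

local notation "θ" => (2 ^ m : ℕ)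
local notation "G¹" => twistedF4 K (2 ^ m : ℕ)

/-- A fixed element of the orthogonal pair, in the group. -/
noncomputable def rG (t : K) : ↥G¹ := ⟨R m t, R_mem m t⟩

/-- A fixed element of the class of type `B₂`, in the group. -/
noncomputable def uG (t u : K) : ↥G¹ := ⟨U m t u, U_mem m t u⟩

theorem rG_inj {t t' : K} (h : rG m t = rG m t') : t = t' := R_inj m (congrArg Subtype.val h)

theorem uG_inj {t u t' u' : K} (h : uG m t u = uG m t' u') : t = t' ∧ u = u' :=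
  U_inj m (congrArg Subtype.val h)

theorem rG_add (t t' : K) : rG m t * rG m t' = rG m (t + t') := Subtype.ext (R_add m t t')

/-- The first monomial element, in the group. -/
noncomputable def n0G : ↥G¹ := ⟨nN K 0, nN_mem m 0⟩

variable (hK : Nat.card K = 2 ^ (2 * m + 1))

include hK in
theorem U_mul' (t u t' u' : K) :
    U m t u * U m t' u' = U m (t + t') (u + u' + t' * t ^ θ) := by
  have h2 : (2 : K) = 0 := by exact_mod_cast CharP.cast_eq_zero K 2
  rw [U, U, W_mul, U, add_pow_theta]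
  congr 1
  · rw [pow_succ (t + t') θ, add_pow_theta, pow_succ t θ, pow_succ t' θ]
    linear_combination -(t' * t ^ θ) * h2
  · rw [add_pow_theta2, add_pow_theta2, mul_pow, pow_theta m hK, ← pow_mul t' θ 2, mul_comm θ 2]
    ring

include hK in
theorem uG_mul (t u t' u' : K) :
    uG m t u * uG m t' u' = uG m (t + t') (u + u' + t' * t ^ θ) :=
  Subtype.ext (U_mul' m hK t u t' u')

include hK in
theorem uG_mul_low (t u u' : K) : uG m t u * uG m 0 u' = uG m t (u + u') := by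
  rw [uG_mul m hK, add_zero, zero_mul, add_zero]

include hK in
theorem uG_sq (t u : K) : uG m t u * uG m t u = uG m 0 (t * t ^ θ) := by
  rw [uG_mul m hK, CharTwo.add_self_eq_zero, CharTwo.add_self_eq_zero, zero_add]

include hK in
theorem mem_Xp0 {g : ↥G¹} :
    (g : GL chevF4.Idx K) ∈ (gdata K m hK).Xp 0 ↔ ∃ t, g = rG m t :=
  (mem_X0 m hK).trans ⟨fun ⟨t, e⟩ => ⟨t, Subtype.ext e⟩, fun ⟨t, e⟩ => ⟨t, congrArg Subtype.val e⟩⟩

include hK in
theorem mem_Xp1 {g : ↥G¹} :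
    (g : GL chevF4.Idx K) ∈ (gdata K m hK).Xp 1 ↔ ∃ t u, g = uG m t u :=
  (mem_X1 m hK).trans ⟨fun ⟨t, u, e⟩ => ⟨t, u, Subtype.ext e⟩,
    fun ⟨t, u, e⟩ => ⟨t, u, congrArg Subtype.val e⟩⟩

/-- The action of a torus element on the root groups of the orbits. -/
def HasCoord (a : ↥G¹) (α β : Kˣ) : Prop :=
  (∀ t : K, a * rG m t * a⁻¹ = rG m ((α : K) * t)) ∧
    ∀ t u : K, a * uG m t u * a⁻¹ = uG m ((β : K) * t) ((β : K) * (β : K) ^ θ * u)

include hK in
theorem coord_of_dg {z : ℕ → Kˣ} (hz : SF.dg z ∈ H1 K m) {a : ↥G¹}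
    (e : (a : GL chevF4.Idx K) = SF.dg z) : HasCoord m a (z 3) (z 2) := by
  have h2 : (z 1 : K) = (z 2 : K) ^ θ := by
    rw [(coord_eq m hK hz).2, Units.val_pow_eq_pow_val]; exact (pow_theta' m hK _).symm
  refine ⟨fun t => Subtype.ext ?_, fun t u => Subtype.ext ?_⟩
  · show (a : GL chevF4.Idx K) * R m t * (a : GL chevF4.Idx K)⁻¹ = R m _
    rw [e]; exact torus_conj_R m hK hz t
  · show (a : GL chevF4.Idx K) * U m t u * (a : GL chevF4.Idx K)⁻¹ = U m _ _
    rw [e, torus_conj_U m hK hz, h2, mul_comm ((z 2 : K) ^ θ)]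

include hK in
/-- The coordinates of a torus element and of its conjugate by the first monomial element. -/
theorem torus_form {a : ↥G¹} (ha : (a : GL chevF4.Idx K) ∈ H1 K m) : ∃ α β : Kˣ, HasCoord m a α β ∧
    HasCoord m (n0G m * a * (n0G m)⁻¹) α⁻¹ (β * α) := by
  obtain ⟨z, hz⟩ := SF.exists_dg (Subgroup.mem_inf.1 ha).1
  have haH : SF.dg z ∈ H1 K m := hz ▸ ha
  have hc := coord_of_dg m hK haH hz
  have hnH := (gdata K m hK).H1_conj 0 _ ha
  obtain ⟨z', hz'⟩ := SF.exists_dg (Subgroup.mem_inf.1 hnH).1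
  have hzH' : SF.dg z' ∈ H1 K m := hz' ▸ hnH
  have hc' := coord_of_dg m hK hzH' (a := n0G m * a * (n0G m)⁻¹) hz'
  refine ⟨z 3, z 2, hc, ?_⟩
  suffices h : z' 3 = (z 3)⁻¹ ∧ z' 2 = z 2 * z 3 by rwa [h.1, h.2] at hc'
  have key : ∀ r s : ℕ, ∀ hr : r < chevF4.nroots, ∀ hs : s < chevF4.nroots,
      wdata.{u}.wJ 0 ⟨r, hr⟩ = ⟨s, hs⟩ → SF.chi z' s = SF.chi z r := by
    intro r s hr hs hrs
    obtain ⟨c, hc⟩ := nN_acts (K := K) 0 ⟨r, hr⟩
    rw [hrs] at hc
    have e1 := SF.dg_conj_xU z' (r := s) hs ((c : K) * 1)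
    have hz'' : nN K 0 * (a : GL chevF4.Idx K) * (nN K 0)⁻¹ = SF.dg z' := hz'
    rw [← hz'', ← hc 1, show ∀ n x : GL chevF4.Idx K,
      n * (a : GL chevF4.Idx K) * n⁻¹ * (n * x * n⁻¹) * (n * (a : GL chevF4.Idx K) * n⁻¹)⁻¹ =
        n * ((a : GL chevF4.Idx K) * x * (a : GL chevF4.Idx K)⁻¹) * n⁻¹ from fun n x => by group] at e1
    rw [show ((a : GL chevF4.Idx K) * SF.xU r (1 : K) * (a : GL chevF4.Idx K)⁻¹) =
      SF.xU r ((SF.chi z r : K) * 1) by rw [hz]; exact SF.dg_conj_xU z hr 1] at e1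
    rw [hc] at e1
    have e2 := SF.coef_eq hs e1
    rw [mul_one, mul_one, mul_comm] at e2
    exact Units.ext (mul_right_cancel₀ c.ne_zero e2).symm
  obtain ⟨-, -, c25, c24⟩ := chi_values z'
  obtain ⟨-, -, -, d24⟩ := chi_values z
  constructor
  · have h := key 23 24 (by decide) (by decide) (by decide +kernel)
    rw [c24] at h
    rw [h, show (23 : ℕ) = chevF4.neg 24 by rw [negF (by omega)],
      SF.chi_neg _ (r := 24) (by decide), d24]
  · have h := key 26 25 (by decide) (by decide) (by decide +kernel)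
    rw [c25] at h
    rw [h, chi_of_vec vec26]
    simp

include hK in
theorem exists_torus (α β : Kˣ) :
    ∃ a : ↥G¹, (a : GL chevF4.Idx K) ∈ H1 K m ∧ HasCoord m a α β := by
  obtain ⟨z, h0, h1, hH, hG⟩ := exists_coord m hK (α ^ θ) (β ^ θ)
  refine ⟨⟨SF.dg z, H1_le m hK hH⟩, hH, ?_⟩
  have h := coord_of_dg m hK hH (a := ⟨SF.dg z, H1_le m hK hH⟩) rfl
  rwa [(coord_eq m hK hH).1, (coord_eq m hK hH).2, h0, h1, units_pow_theta m hK,
    units_pow_theta m hK] at h

/-- An automorphism keeping the root groups of the orbits, their negatives and the torus. -/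
def Std (φ : MulAut ↥G¹) : Prop :=
  (∀ j, (gdata K m hK).MapsOn φ ((gdata K m hK).Xp j) ((gdata K m hK).Xp j)) ∧
    (∀ j, (gdata K m hK).MapsOn φ ((gdata K m hK).Xn j) ((gdata K m hK).Xn j)) ∧
      (gdata K m hK).MapsOn φ (gdata K m hK).H1 (gdata K m hK).H1

theorem Std.mul {φ ψ : MulAut ↥G¹} (h : Std m hK φ) (h' : Std m hK ψ) :
    Std m hK (φ * ψ) :=
  ⟨fun j g => (h.1 j _).trans (h'.1 j g), fun j g => (h.2.1 j _).trans (h'.2.1 j g),
    fun g => (h.2.2 _).trans (h'.2.2 g)⟩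

include hK in
/-- Up to an inner automorphism an automorphism is standard with both scalars `1`. -/
theorem exists_std (θ₀ : MulAut ↥G¹) :
    ∃ x : ↥G¹, Std m hK (MulAut.conj x * θ₀) ∧
      (MulAut.conj x * θ₀) (rG m 1) = rG m 1 ∧
        ∃ u : K, (MulAut.conj x * θ₀) (uG m 1 0) = uG m 1 u := by
  obtain ⟨x, hx⟩ : ∃ x : ↥G¹, (gdata K m hK).KeepsAll (MulAut.conj x * θ₀) :=
    (gdata K m hK).exists_keepsAll lj_inj longest_neg θ₀
  set φ := MulAut.conj x * θ₀
  obtain ⟨s, hs⟩ : ∃ s, φ (rG m 1) = rG m s := (mem_Xp0 m hK).1 ((hx.xp 0 _).2 ((mem_Xp0 m hK).2 ⟨1, rfl⟩))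
  obtain ⟨t, u, ht⟩ : ∃ t u, φ (uG m 1 0) = uG m t u := (mem_Xp1 m hK).1 ((hx.xp 1 _).2 ((mem_Xp1 m hK).2 ⟨1, 0, rfl⟩))
  have hs0 : s ≠ 0 := fun e => by
    rw [e, show rG m (0 : K) = (1 : ↥G¹) from Subtype.ext (R_zero m),
      MulEquiv.map_eq_one_iff] at hs
    exact one_ne_zero (R_inj m ((congrArg Subtype.val hs).trans (R_zero m).symm))
  have ht0 : t ≠ 0 := fun e => by
    have h := congrArg φ (uG_sq m hK (1 : K) 0)
    rw [map_mul, ht, e, uG_sq m hK, zero_mul, one_mul, one_pow,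
      show uG m (0 : K) 0 = (1 : ↥G¹) from Subtype.ext (U_zero m)] at h
    have h' := (MulEquiv.map_eq_one_iff φ).1 h.symm
    exact one_ne_zero (U_inj m ((congrArg Subtype.val h').trans (U_zero m).symm)).2
  obtain ⟨a, ha, hc⟩ := exists_torus m hK (Units.mk0 s hs0)⁻¹ (Units.mk0 t ht0)⁻¹
  refine ⟨a * x, ?_⟩
  have e : MulAut.conj (a * x) * θ₀ = MulAut.conj a * φ := by rw [map_mul, mul_assoc]
  rw [e]
  have hca : (gdata K m hK).KeepsAll (MulAut.conj a) :=
    (gdata K m hK).keepsAll_conj lj_inj longest_neg a ha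
  refine ⟨⟨fun j g => (hca.xp j _).trans (hx.xp j g), fun j g => (hca.xn j _).trans (hx.xn j g),
    fun g => (hca.torus _).trans (hx.torus g)⟩, ?_, ?_⟩
  · show a * φ (rG m 1) * a⁻¹ = _
    rw [hs, hc.1, Units.val_inv_eq_inv_val, Units.val_mk0, inv_mul_cancel₀ hs0]
  · refine ⟨(((Units.mk0 t ht0)⁻¹ : Kˣ) : K) * (((Units.mk0 t ht0)⁻¹ : Kˣ) : K) ^ θ * u, ?_⟩
    show a * φ (uG m 1 0) * a⁻¹ = _
    rw [ht, hc.2, Units.val_inv_eq_inv_val, Units.val_mk0, inv_mul_cancel₀ ht0]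

include hK in
theorem exists_not_fixed (hm : 1 ≤ m) : ∃ x : K, x + x ^ θ ≠ 0 := by
  by_contra hc
  push Not at hc
  have hfix : ∀ x : K, x ^ θ = x := fun x =>
    eq_comm.1 (CharTwo.add_eq_zero.1 (hc x))
  haveI := Fintype.ofFinite K
  classical
  have hsub : (Finset.univ : Finset K) ⊆ {0, 1} := fun x _ => by
    have h := pow_theta m hK x
    rw [hfix x, pow_mul', hfix, pow_two] at h
    rcases eq_or_ne x 0 with rfl | hx
    · simp
    · simp [mul_eq_left₀ hx |>.1 h]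
  have h := Finset.card_le_card hsub
  rw [Finset.card_univ, ← Nat.card_eq_fintype_card, hK] at h
  have h2 : ({0, 1} : Finset K).card ≤ 2 := Finset.card_le_two
  have : 2 ^ 3 ≤ 2 ^ (2 * m + 1) := Nat.pow_le_pow_right (by norm_num) (by omega)
  omega

include hK in
/-- An element is a product of a value and its `θ`-th power. -/
theorem exists_norm_root (u : K) : ∃ t : K, t * t ^ θ = u := by
  rcases eq_or_ne u 0 with rfl | hu
  · exact ⟨0, zero_mul _⟩
  refine ⟨(u ^ (2 * (θ - 1)))⁻¹, ?_⟩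
  haveI := Fintype.ofFinite K
  rw [inv_pow, ← mul_inv, ← pow_succ', ← pow_mul]
  refine inv_eq_of_mul_eq_one_left ?_
  rw [← pow_succ']
  have h1 : 1 ≤ θ := Nat.one_le_two_pow
  have e : 2 * (θ - 1) * (θ + 1) + 1 = Fintype.card K - 1 := by
    rw [← Nat.card_eq_fintype_card, hK, show 2 ^ (2 * m + 1) = 2 * (θ * θ) by ring]
    have : 1 ≤ θ * θ := Nat.one_le_iff_ne_zero.2 (by positivity)
    zify [h1, show 1 ≤ 2 * (θ * θ) by omega]
    ring
  rw [e]
  exact FiniteField.pow_card_sub_one_eq_one u hu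

include hK in
/-- A standard automorphism fixing the first root group and a scalar of the second is trivial. -/
theorem rigid (hm : 1 ≤ m) {φ : MulAut ↥G¹} (h : Std m hK φ)
    (h0 : ∀ t, φ (rG m t) = rG m t) (h1 : ∃ u : K, φ (uG m 1 0) = uG m 1 u) : φ = 1 := by
  have hex : ∀ t u : K, ∃ p q : K, φ (uG m t u) = uG m p q := fun t u =>
    (mem_Xp1 m hK).1 ((h.1 1 _).2 ((mem_Xp1 m hK).2 ⟨t, u, rfl⟩))
  choose P Q hPQ using hex
  have hP0 : ∀ u, P 0 u = 0 := fun u => by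
    have e := congrArg φ (uG_sq m hK (0 : K) u)
    rw [map_mul, hPQ, uG_sq m hK, zero_mul,
      show uG m (0 : K) 0 = (1 : ↥G¹) from Subtype.ext (U_zero m), map_one] at e
    have e' := (U_inj m ((congrArg Subtype.val e).trans (U_zero m).symm)).2
    rcases mul_eq_zero.1 e' with h' | h'
    · exact h'
    · exact pow_eq_zero_iff (theta_ne_zero m) |>.1 h'
  have hP : ∀ t u, P t u = P t 0 := fun t u => by
    have e := congrArg φ (uG_mul_low m hK t 0 u)
    rw [zero_add, map_mul, hPQ, hPQ, hPQ, hP0, uG_mul_low m hK] at e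
    exact (uG_inj m e).1.symm
  have hP1 : P 1 0 = 1 := by
    obtain ⟨u, hu⟩ := h1
    exact (uG_inj m ((hPQ 1 0).symm.trans hu)).1
  have hn : φ (n0G m) = n0G m :=
    (gdata K m hK).fix_nG (h.2.1 0) fun x hx => by
      obtain ⟨t, rfl⟩ := (mem_Xp0 m hK).1 hx; exact h0 t
  -- the images of torus elements
  have htor : ∀ (a : ↥G¹) (α β : Kˣ), HasCoord m a α β →
      ∀ α' β', HasCoord m (φ a) α' β' → α' = α ∧ (β' : K) = P (β : K) 0 ∧
        ∀ t, P ((β : K) * t) 0 = (β' : K) * P t 0 := by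
    intro a α β hab α' β' hab'
    have hb : ∀ t, P ((β : K) * t) 0 = (β' : K) * P t 0 := fun t => by
      have e := congrArg φ (hab.2 t 0)
      rw [map_mul, map_mul, map_inv, hPQ, hab'.2, hPQ] at e
      rw [mul_zero] at e
      exact (uG_inj m e).1.symm
    refine ⟨?_, ?_, hb⟩
    · have e := congrArg φ (hab.1 1)
      rw [map_mul, map_mul, map_inv, h0, hab'.1, h0, mul_one, mul_one] at e
      exact Units.ext (rG_inj m e)
    · have := hb 1
      rwa [mul_one, hP1, mul_one, eq_comm] at this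
  have hfix : ∀ α : Kˣ, P (α : K) 0 = α := by
    intro α
    obtain ⟨a, ha, hc⟩ := exists_torus m hK α 1
    obtain ⟨α₁, β₁, hc1, hc2⟩ := torus_form m hK ha
    have hαβ : α₁ = α ∧ β₁ = 1 := by
      refine ⟨Units.ext ?_, Units.ext ?_⟩
      · simpa using rG_inj m ((hc1.1 1).symm.trans (hc.1 1))
      · simpa using (uG_inj m ((hc1.2 1 0).symm.trans (hc.2 1 0))).1
    obtain ⟨rfl, rfl⟩ := hαβ
    obtain ⟨α', β', hc1', hc2'⟩ : ∃ α' β', HasCoord m (φ a) α' β' ∧
        HasCoord m (n0G m * φ a * (n0G m)⁻¹) α'⁻¹ (β' * α') := torus_form m hK ((h.2.2 a).2 ha)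
    obtain ⟨rfl, hβ', -⟩ := htor a _ _ hc1 _ _ hc1'
    rw [Units.val_one, hP1, Units.val_eq_one] at hβ'
    have e : φ (n0G m * a * (n0G m)⁻¹) =
        n0G m * φ a * (n0G m)⁻¹ := by
      rw [map_mul, map_mul, map_inv, hn]
    rw [← e] at hc2'
    obtain ⟨-, h2, -⟩ := htor _ _ _ hc2 _ _ hc2'
    rw [hβ'] at h2
    simpa using h2.symm
  have hPid : ∀ t, P t 0 = t := fun t => by
    rcases eq_or_ne t 0 with rfl | ht
    · exact hP0 0
    · exact hfix (Units.mk0 t ht)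
  -- the centre of the second root group
  have hQ0 : ∀ u, Q 0 u = u := fun u => by
    obtain ⟨t, rfl⟩ := exists_norm_root m hK u
    have e := congrArg φ (uG_sq m hK t 0)
    rw [map_mul, hPQ, hPQ, uG_sq m hK, hPid] at e
    exact (uG_inj m e).2.symm
  have hQ : ∀ t u, φ (uG m t u) = uG m t (Q t 0 + u) := fun t u => by
    have e : uG m t u = uG m t 0 * uG m 0 u := by rw [uG_mul_low m hK, zero_add]
    rw [e, map_mul, hPQ, hPQ, hP0, hPid, hQ0, uG_mul_low m hK]
  have hadd : ∀ s t, Q (s + t) 0 = Q s 0 + Q t 0 := fun s t => by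
    have e : uG m s 0 * uG m t 0 = uG m (s + t) (t * s ^ θ) := by
      rw [uG_mul m hK, add_zero, zero_add]
    have e' := congrArg φ e
    rw [map_mul, hQ, hQ, hQ, uG_mul m hK, add_zero, add_zero] at e'
    linear_combination -(uG_inj m e').2
  have hhom : ∀ b : Kˣ, Q (b : K) 0 = (b : K) * (b : K) ^ θ * Q 1 0 := by
    intro b
    obtain ⟨a, ha, hc⟩ := exists_torus m hK 1 b
    obtain ⟨α', β', hc', -⟩ : ∃ α' β', HasCoord m (φ a) α' β' ∧
        HasCoord m (n0G m * φ a * (n0G m)⁻¹) α'⁻¹ (β' * α') := torus_form m hK ((h.2.2 a).2 ha)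
    obtain ⟨-, hb', -⟩ := htor a _ _ hc _ _ hc'
    rw [hPid] at hb'
    have e := congrArg φ (hc.2 1 0)
    rw [map_mul, map_mul, map_inv, hQ, hc'.2, hQ, hb'] at e
    have := (uG_inj m e).2
    simp only [mul_one, mul_zero, add_zero] at this
    exact this.symm
  have hQ1 : Q 1 0 = 0 := by
    obtain ⟨x, hx⟩ := exists_not_fixed m hK hm
    have hx0 : x ≠ 0 := fun e => hx (by rw [e, zero_pow (theta_ne_zero m), add_zero])
    have hx1 : x + 1 ≠ 0 := fun e => hx (by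
      rw [CharTwo.add_eq_zero.1 e, one_pow]; exact CharTwo.add_self_eq_zero (1 : K))
    have e := hadd x 1
    have q1 := hhom (Units.mk0 _ hx1)
    have q2 := hhom (Units.mk0 _ hx0)
    rw [Units.val_mk0] at q1 q2
    rw [q1, q2, add_pow_theta, one_pow] at e
    have e2 : (x + x ^ θ) * Q 1 0 = 0 := by linear_combination e
    exact (mul_eq_zero.1 e2).resolve_left hx
  refine (gdata K m hK).eq_one_of_fix h.2.1 fun j x hx => ?_
  obtain rfl | rfl : j = 0 ∨ j = 1 := by fin_cases j <;> simp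
  · obtain ⟨t, rfl⟩ := (mem_Xp0 m hK).1 hx; exact h0 t
  · obtain ⟨t, u, rfl⟩ := (mem_Xp1 m hK).1 hx
    refine (hQ t u).trans (congrArg (uG m t) ?_)
    rcases eq_or_ne t 0 with rfl | ht
    · rw [hQ0, zero_add]
    · have q := hhom (Units.mk0 _ ht)
      rw [Units.val_mk0] at q
      rw [q, hQ1, mul_zero, zero_add]

/-! ### Field automorphisms -/

theorem fG_R (σ : RingAut K) (t : K) : glMap chevF4 (σ : K →+* K) (R m t) = R m (σ t) := by
  simp [R, P, Sys.glMap_xU, map_pow]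

theorem fG_U (σ : RingAut K) (t u : K) :
    glMap chevF4 (σ : K →+* K) (U m t u) = U m (σ t) (σ u) := by
  simp [U, W, Y, Sys.glMap_xU, map_pow, map_add]

theorem fG_nN (σ : RingAut K) (j : Fin 2) :
    glMap chevF4 (σ : K →+* K) (nN K j) = nN K j := Sys.glMap_nw _ _ _

theorem map_twisted (σ : RingAut K) :
    (twistedF4 K θ).map (glMap chevF4 (σ : K →+* K)) = twistedF4 K θ := by
  have hle : ∀ τ : RingAut K,
      (twistedF4 K θ).map (glMap chevF4 (τ : K →+* K)) ≤ twistedF4 K θ := by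
    intro τ
    rw [twistedF4, ChevalleyDatum.genSubgroup, Subgroup.map_le_iff_le_comap, Subgroup.closure_le]
    rintro g ⟨w, (⟨t, rfl | rfl⟩ | ⟨t, u, rfl | rfl⟩), hg⟩ <;>
      rw [SetLike.mem_coe, Subgroup.mem_comap]
    · rw [show g = R m t from Units.ext (hg.trans (coe_R m t).symm), fG_R]
      exact R_mem m _
    · rw [show g = nN K 0 * R m t * (nN K 0)⁻¹ from Units.ext (hg.trans (coe_conj_R m t).symm),
        map_mul, map_mul, map_inv, fG_R, fG_nN]
      exact conj_R_mem m _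
    · rw [show g = U m t u from Units.ext (hg.trans (coe_U m t u).symm), fG_U]
      exact U_mem m _ _
    · rw [show g = nN K 1 * U m t u * (nN K 1)⁻¹ from Units.ext (hg.trans (coe_conj_U m t u).symm),
        map_mul, map_mul, map_inv, fG_U, fG_nN]
      exact conj_U_mem m _ _
  refine le_antisymm (hle σ) fun g hg => ⟨glMap chevF4 (σ.symm : K →+* K) g, hle σ.symm ⟨g, hg, rfl⟩, ?_⟩
  refine Units.ext (Matrix.ext fun i j => ?_)
  show σ (σ.symm ((g : Matrix chevF4.Idx chevF4.Idx K) i j)) = _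
  rw [RingEquiv.apply_symm_apply]

variable (K) in
/-- The field automorphisms of the group. -/
noncomputable def fieldHom : RingAut K →* MulAut ↥(twistedF4 K (2 ^ m : ℕ)) :=
  MonoidHom.mk' (fun τ => ((twistedF4 K θ).equivMapOfInjective _
      (glMap_injective chevF4 (τ : K →+* K))).trans
    (MulEquiv.subgroupCongr (map_twisted m τ))) fun a b => by
      refine MulEquiv.ext fun x => Subtype.ext (Units.ext ?_)
      show ((x : GL chevF4.Idx K) : Matrix chevF4.Idx chevF4.Idx K).map ((a * b : RingAut K) : K →+* K) =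
        (((x : GL chevF4.Idx K) : Matrix chevF4.Idx chevF4.Idx K).map (b : K →+* K)).map (a : K →+* K)
      rw [Matrix.map_map]
      rfl

theorem fieldHom_rG (σ : RingAut K) (t : K) : fieldHom K m σ (rG m t) = rG m (σ t) :=
  Subtype.ext (fG_R m σ t)

theorem fieldHom_uG (σ : RingAut K) (t u : K) :
    fieldHom K m σ (uG m t u) = uG m (σ t) (σ u) :=
  Subtype.ext (fG_U m σ t u)

include hK in
theorem fieldHom_std (σ : RingAut K) : Std m hK (fieldHom K m σ) := by
  have iffOf : ∀ X : Subgroup (GL chevF4.Idx K),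
      (∀ τ : RingAut K, ∀ x : ↥G¹, (x : GL chevF4.Idx K) ∈ X →
        (fieldHom K m τ x : GL chevF4.Idx K) ∈ X) →
      (gdata K m hK).MapsOn (fieldHom K m σ) X X := fun X hX (g : ↥G¹) => ⟨fun h => by
        have h' := hX σ⁻¹ _ h
        have e : fieldHom K m σ⁻¹ (fieldHom K m σ g) = g := by
          rw [map_inv, MulAut.inv_apply_self]
        exact (congrArg Subtype.val e) ▸ h', hX σ g⟩
  have hXp : ∀ j : Fin 2, ∀ τ : RingAut K, ∀ x : ↥G¹,
      (x : GL chevF4.Idx K) ∈ (gdata K m hK).Xp j →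
        (fieldHom K m τ x : GL chevF4.Idx K) ∈ (gdata K m hK).Xp j := by
    intro j τ x hx
    obtain rfl | rfl : j = 0 ∨ j = 1 := by fin_cases j <;> simp
    · obtain ⟨t, rfl⟩ := (mem_Xp0 m hK).1 hx
      exact (mem_Xp0 m hK).2 ⟨_, fieldHom_rG m τ t⟩
    · obtain ⟨t, u, rfl⟩ := (mem_Xp1 m hK).1 hx
      exact (mem_Xp1 m hK).2 ⟨_, _, fieldHom_uG m τ t u⟩
  refine ⟨fun j => iffOf _ (hXp j), fun j => iffOf _ fun τ x hx => ?_,
    iffOf _ fun τ x hx => ?_⟩
  · obtain ⟨y, hy, e⟩ := (gdata K m hK).mem_Xn.1 hx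
    refine (gdata K m hK).mem_Xn.2 ⟨_, hXp j τ ⟨y, (gdata K m hK).Xp_le j hy⟩ hy, ?_⟩
    show glMap chevF4 (τ : K →+* K) (x : GL chevF4.Idx K) =
      nN K j * glMap chevF4 (τ : K →+* K) y * (nN K j)⁻¹
    rw [e, map_mul, map_mul, map_inv, show (gdata K m hK).nJ j = nN K j from rfl, fG_nN]
  · refine Subgroup.mem_inf.2 ⟨SF.glMap_diag _ (Subgroup.mem_inf.1 hx).1, ?_⟩
    exact twisted_le_fixed m hK (fieldHom K m τ x).2

include hK in
theorem exists_decomposition (hm : 1 ≤ m) (α : MulAut ↥G¹) :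
    ∃ (k : ↥G¹) (σ : RingAut K), α = MulAut.conj k * fieldHom K m σ := by
  obtain ⟨x, hS, hr1, hu1⟩ := exists_std m hK α
  set φ : MulAut ↥G¹ := MulAut.conj x * α with hφ
  have hex : ∀ t, ∃ s, φ (rG m t) = rG m s := fun t =>
    (mem_Xp0 m hK).1 ((hS.1 0 _).2 ((mem_Xp0 m hK).2 ⟨t, rfl⟩))
  choose f hf using hex
  have hf1 : f 1 = 1 := rG_inj m ((hf 1).symm.trans hr1)
  have hf0 : f 0 = 0 := by
    have e := hf 0
    rw [show rG m (0 : K) = (1 : ↥G¹) from Subtype.ext (R_zero m), map_one] at e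
    exact R_inj m ((congrArg Subtype.val e.symm).trans (R_zero m).symm)
  have hmul : ∀ s t, f (s * t) = f s * f t := by
    intro s t
    rcases eq_or_ne s 0 with rfl | hs
    · rw [zero_mul, hf0, zero_mul]
    obtain ⟨a, ha, hc⟩ := exists_torus m hK (Units.mk0 s hs) 1
    obtain ⟨α', β', hc', -⟩ : ∃ α' β', HasCoord m (φ a) α' β' ∧
        HasCoord m (n0G m * φ a * (n0G m)⁻¹) α'⁻¹ (β' * α') := torus_form m hK ((hS.2.2 a).2 ha)
    have key : ∀ t, f (s * t) = (α' : K) * f t := fun t => by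
      have e := congrArg φ (hc.1 t)
      rw [map_mul, map_mul, map_inv, hf, hc'.1, hf, Units.val_mk0] at e
      exact (rG_inj m e).symm
    have h1 := key 1
    rw [mul_one, hf1, mul_one] at h1
    rw [key t, h1]
  let σr : K →+* K :=
    { toFun := f
      map_one' := hf1
      map_zero' := hf0
      map_add' := fun s t => by
        have e := congrArg φ (rG_add m s t)
        rw [map_mul, hf, hf, hf, rG_add] at e
        exact (rG_inj m e).symm
      map_mul' := hmul }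
  let σ : RingAut K := RingEquiv.ofBijective σr (Finite.injective_iff_bijective.mp σr.injective)
  have key : fieldHom K m σ⁻¹ * φ = 1 := by
    refine rigid m hK hm ((fieldHom_std m hK σ⁻¹).mul m hK hS) (fun t => ?_) ?_
    · rw [MulAut.mul_apply, hf, fieldHom_rG]
      exact congrArg (rG m) (σ.symm_apply_apply t)
    · obtain ⟨u, hu⟩ := hu1
      exact ⟨σ⁻¹ u, by rw [MulAut.mul_apply, hu, fieldHom_uG, map_one]⟩
  refine ⟨x⁻¹, σ, ?_⟩
  rw [map_inv, inv_mul_eq_one] at key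
  rw [key, hφ, map_inv, inv_mul_cancel_left]

include hK in
theorem fieldHom_inner {σ : RingAut K} {g : ↥G¹} (e : fieldHom K m σ = MulAut.conj g) : σ = 1 := by
  have e' : ∀ x, fieldHom K m σ x = g * x * g⁻¹ := fun x => by rw [e]; rfl
  set L : List (Fin 2) := [0, 1, 0, 1, 0, 1, 0, 1]
  set A := gdata K m hK
  set n : ↥G¹ := ⟨A.nT L, A.nT_mem L⟩
  have hng : g * n * g⁻¹ = n := by
    rw [← e']
    refine Subtype.ext ?_
    show glMap chevF4 (σ : K →+* K) (A.nT L) = A.nT L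
    rw [Twisted.GData.nT, map_list_prod, List.map_map]
    exact congrArg List.prod (List.map_congr_left fun j _ => fG_nN σ j)
  have hU : ∀ x : ↥G¹, (x : GL chevF4.Idx K) ∈ A.U1 →
      ((g * x * g⁻¹ : ↥G¹) : GL chevF4.Idx K) ∈ A.U1 := fun x hx => by
    refine (A.mem_U1_iff (g * x * g⁻¹)).2 ?_
    rw [← e']
    exact SF.glMap_pos _ ((A.mem_U1_iff x).1 hx)
  have hB : (g : GL chevF4.Idx K) ∈ A.B1 :=
    A.mem_B1_of_normalizes g.2 fun x hx => hU ⟨x, A.U1_le hx⟩ hx
  have hconj : ∀ y : ↥G¹, (y : GL chevF4.Idx K) ∈ A.V1 ↔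
      ((n⁻¹ * y * n : ↥G¹) : GL chevF4.Idx K) ∈ A.U1 := fun y => by
    refine (A.mem_V1_iff y).trans (Iff.trans ?_ (A.mem_U1_iff (n⁻¹ * y * n)).symm)
    rw [← SF.conj_eq_negUnipotent (A.nT_acts L)
      (fun r hr => not_le.1 (fun h =>
        (SF.{u}.pos_ng r).1 (by rw [← longest_neg_aux.{u} r]; exact h) hr))]
    push_cast
    rw [show (A.nT L) * ((n : GL chevF4.Idx K)⁻¹ * y * n) * (A.nT L)⁻¹ = (y : GL chevF4.Idx K) by
      show A.nT L * ((A.nT L)⁻¹ * y * A.nT L) * (A.nT L)⁻¹ = _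
      group]
  have hV : ∀ y : ↥G¹, (y : GL chevF4.Idx K) ∈ A.V1 →
      ((g * y * g⁻¹ : ↥G¹) : GL chevF4.Idx K) ∈ A.V1 := fun y hy => by
    rw [hconj]
    have h := hU _ ((hconj y).1 hy)
    rwa [show g * (n⁻¹ * y * n) * g⁻¹ = (g * n * g⁻¹)⁻¹ * (g * y * g⁻¹) * (g * n * g⁻¹) by group,
      hng] at h
  obtain ⟨α, β, hc, -⟩ := torus_form m hK ((A.mem_H1_iff longest_neg g).2 ⟨hB, hV⟩)
  have hx : ∀ t, σ t = (α : K) * t := fun t =>
    rG_inj m ((fieldHom_rG m σ t).symm.trans ((e' _).trans (hc.1 t)))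
  have hα : (α : K) = 1 := by
    have := hx 1
    rw [map_one, mul_one] at this
    exact this.symm
  exact RingEquiv.ext fun t => by rw [hx, hα, one_mul]; rfl

include hK in
theorem card_out (hm : 1 ≤ m) : Nat.card (Cfsg.Out ↥G¹) = 2 * m + 1 := by
  haveI : Fact (Nat.Prime 2) := ⟨Nat.prime_two⟩
  haveI := Fintype.ofFinite K
  rw [← CfsgLib.AutPSL.card_ringAut K (p := 2) (f := 2 * m + 1) (by rw [← Nat.card_eq_fintype_card, hK])]
  refine (Nat.card_congr (Equiv.ofBijective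
    ((QuotientGroup.mk' (Cfsg.Inn ↥G¹)).comp (fieldHom K m)) ⟨?_, ?_⟩)).symm
  · refine (injective_iff_map_eq_one _).mpr fun σ hσ => ?_
    obtain ⟨g, hg⟩ := (QuotientGroup.eq_one_iff _).mp hσ
    exact fieldHom_inner m hK hg.symm
  · intro x
    obtain ⟨α, rfl⟩ := QuotientGroup.mk'_surjective _ x
    obtain ⟨k, σ, rfl⟩ := exists_decomposition m hK hm α
    refine ⟨σ, ?_⟩
    rw [map_mul]
    have : QuotientGroup.mk' (Cfsg.Inn ↥G¹) (MulAut.conj k) = 1 := (QuotientGroup.eq_one_iff _).mpr ⟨k, rfl⟩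
    rw [this, one_mul]
    rfl

end CfsgLib.Chev.Ree4
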