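import Cfsg.Agent.Chev.Ree4.Group
import Cfsg.Agent.Chev.BorelTits.Rigid

/-!
# Centralisers of involutions in the Ree groups of type `F₄`

The radical `2`-subgroup of `F₄(q)` above a fixed involution is stable under the exchange, so it is a
conjugate of `U_J` with `J` invariant under the exchange of the nodes; the order of `P_J` gives the primes.
-/

set_option autoImplicit false
set_option maxRecDepth 100000
set_option linter.unusedSectionVars false

namespace CfsgLib.Chev.Ree4

open Cfsg.Lie CfsgLib.Chev Matrix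

universe u

/-- The image of a set of nodes under the exchange. -/
def barNodes (J : Set ℕ) : Set ℕ := {i | i < 4 ∧ 3 - i ∈ J}

theorem bar_support : ∀ r : Fin chevF4.nroots, ∀ i : Fin 4,
    SF.{u}.vec (bar r) (3 - (i : ℕ)) = 0 ↔ SF.{u}.vec r i = 0 := by
  decide +kernel

theorem inJ_bar (J : Set ℕ) (r : Fin chevF4.nroots) (h : SF.{u}.InJ (barNodes J) (bar r)) :
    SF.{u}.InJ J r := by
  have hr4 : chevF4.rank = 4 := rfl
  refine ⟨r.2, fun i hi hiJ => ?_⟩
  rw [hr4] at hi
  refine (bar_support r ⟨i, hi⟩).1 (h.2 (3 - i) (by rw [hr4]; omega) fun hm => hiJ ?_)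
  have := hm.2
  rwa [show 3 - (3 - i) = i by omega] at this

/-- The Weyl group of a stable proper set of nodes: `A₁ × A₁`. -/
def words03 : List (List ℕ) := [[], [0], [3], [0, 3]]

/-- The Weyl group of a stable proper set of nodes: `B₂`. -/
def words12 : List (List ℕ) := [[], [1], [2], [1, 2], [2, 1], [1, 2, 1], [2, 1, 2], [1, 2, 1, 2]]

/-- The left multiples of the words by a fundamental reflection. -/
def next03 (q : ℕ) : List (List ℕ) := if q = 0 then [[0], [], [0, 3], [3]] else [[3], [0, 3], [], [0]]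

/-- The left multiples of the words by a fundamental reflection. -/
def next12 (q : ℕ) : List (List ℕ) :=
  if q = 1 then [[1], [], [1, 2], [2], [1, 2, 1], [2, 1], [1, 2, 1, 2], [2, 1, 2]]
  else [[2], [2, 1], [], [2, 1, 2], [1], [1, 2, 1, 2], [1, 2], [1, 2, 1]]

theorem nodup03 : (words03.map SF.{u}.wprod).Nodup := by decide +kernel

theorem nodup12 : (words12.map SF.{u}.wprod).Nodup := by decide +kernel

theorem lens03 : (words03.map SF.{u}.wprod).map Sys.wlen = [0, 1, 1, 2] := by decide +kernel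

theorem lens12 : (words12.map SF.{u}.wprod).map Sys.wlen = [0, 1, 1, 2, 2, 3, 3, 4] := by decide +kernel

theorem next03_0 : words03.map (fun L => SF.{u}.wprod (0 :: L)) = (next03 0).map SF.{u}.wprod := by
  decide +kernel

theorem next03_3 : words03.map (fun L => SF.{u}.wprod (3 :: L)) = (next03 3).map SF.{u}.wprod := by
  decide +kernel

theorem next12_1 : words12.map (fun L => SF.{u}.wprod (1 :: L)) = (next12 1).map SF.{u}.wprod := by
  decide +kernel

theorem next12_2 : words12.map (fun L => SF.{u}.wprod (2 :: L)) = (next12 2).map SF.{u}.wprod := by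
  decide +kernel

theorem closed_of_next {ws t : List (List ℕ)} {q : ℕ} (h : ∀ L ∈ t, L ∈ ws)
    (e : ws.map (fun L => SF.{u}.wprod (q :: L)) = t.map SF.{u}.wprod)
    {w : Equiv.Perm (Fin chevF4.nroots)} (hw : w ∈ ws.map SF.{u}.wprod) :
    SF.{u}.refl q * w ∈ ws.map SF.{u}.wprod := by
  obtain ⟨L, hL, rfl⟩ := List.mem_map.1 hw
  have h2 : SF.{u}.wprod (q :: L) ∈ t.map SF.{u}.wprod :=
    e ▸ List.mem_map.2 ⟨L, hL, rfl⟩
  obtain ⟨L', hL', e'⟩ := List.mem_map.1 h2
  exact List.mem_map.2 ⟨L', h L' hL', e'.trans (SF.{u}.wprod_cons q L)⟩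

theorem check03 : ((words03.map SF.{u}.wprod).Nodup ∧
    ∀ q ∈ ([0, 3] : List ℕ), ∀ w ∈ words03.map SF.{u}.wprod, SF.{u}.refl q * w ∈ words03.map SF.{u}.wprod) ∧
    (words03.map SF.{u}.wprod).map Sys.wlen = [0, 1, 1, 2] := by
  refine ⟨⟨nodup03, fun q hq w hw => ?_⟩, lens03⟩
  simp only [List.mem_cons, List.not_mem_nil, or_false] at hq
  rcases hq with rfl | rfl
  · exact closed_of_next (by decide) next03_0 hw
  · exact closed_of_next (by decide) next03_3 hw

theorem check12 : ((words12.map SF.{u}.wprod).Nodup ∧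
    ∀ q ∈ ([1, 2] : List ℕ), ∀ w ∈ words12.map SF.{u}.wprod, SF.{u}.refl q * w ∈ words12.map SF.{u}.wprod) ∧
    (words12.map SF.{u}.wprod).map Sys.wlen = [0, 1, 1, 2, 2, 3, 3, 4] := by
  refine ⟨⟨nodup12, fun q hq w hw => ?_⟩, lens12⟩
  simp only [List.mem_cons, List.not_mem_nil, or_false] at hq
  rcases hq with rfl | rfl
  · exact closed_of_next (by decide) next12_1 hw
  · exact closed_of_next (by decide) next12_2 hw

variable {K : Type u} [Field K] [Finite K]

theorem card_parabolic_of_words {ns : List ℕ} (hns : ∀ q ∈ ns, q < 4) {ws : List (List ℕ)}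
    (hws : ∀ L ∈ ws, ∀ q ∈ L, q ∈ ns) (h0 : [] ∈ ws) {lens : List ℕ}
    (h : ((ws.map SF.{u}.wprod).Nodup ∧
      ∀ q ∈ ns, ∀ w ∈ ws.map SF.{u}.wprod, SF.{u}.refl q * w ∈ ws.map SF.{u}.wprod) ∧
      (ws.map SF.{u}.wprod).map Sys.wlen = lens) :
    Nat.card (chevF4.parabolicSubgroup K {i | i ∈ ns}) =
      Nat.card (chevF4.diagonalSubgroup K) * Nat.card K ^ 24 * (lens.map (Nat.card K ^ ·)).sum := by
  obtain ⟨⟨hnd, hcl⟩, hlen⟩ := h
  rw [SF.{u}.card_parabolic (F := K) {i | i ∈ ns} (ws.map SF.{u}.wprod).toFinset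
    (List.mem_toFinset.2 (List.mem_map.2 ⟨[], h0, rfl⟩))
    (fun q hq _ w hw => List.mem_toFinset.2 (hcl q hq w (List.mem_toFinset.1 hw)))
    (fun w hw => by
      obtain ⟨L, hL, rfl⟩ := List.mem_map.1 (List.mem_toFinset.1 hw)
      exact ⟨L, fun q hq => ⟨hws L hL q hq, hns q (hws L hL q hq)⟩, rfl⟩),
    List.sum_toFinset _ hnd, ← hlen, show chevF4.nroots / 2 = 24 from rfl, List.map_map, List.map_map,
    List.map_map]
  rfl

/-- The order of the parabolic subgroup of a stable proper set of nodes has only the primes of `q (q⁴ - 1)`. -/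
theorem prime_dvd_parabolic {J : Set ℕ}
    (hJ : (∀ i < 4, i ∈ J → i = 0 ∨ i = 3) ∨ (∀ i < 4, i ∈ J → i = 1 ∨ i = 2))
    {r : ℕ} (hr : r.Prime) (hd : r ∣ Nat.card (chevF4.parabolicSubgroup K J)) :
    r ∣ Nat.card K * (Nat.card K ^ 4 - 1) := by
  haveI : Fintype K := Fintype.ofFinite K
  haveI := Sys.finite_GL (D := chevF4) (F := K)
  haveI : Fact r.Prime := ⟨hr⟩
  have hq : 1 ≤ Nat.card K := Nat.card_pos
  obtain ⟨q, hqe⟩ : ∃ q, Nat.card K = q + 1 := ⟨Nat.card K - 1, by omega⟩
  have h4 : Nat.card K ^ 4 - 1 = q * (q + 2) * (q ^ 2 + 2 * q + 2) := by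
    rw [hqe]
    apply Nat.sub_eq_of_eq_add
    ring
  have hdiag : r ∣ Nat.card (chevF4.diagonalSubgroup K) → r ∣ q := by
    intro h
    obtain ⟨x, hx⟩ := exists_prime_orderOf_dvd_card' r h
    obtain ⟨z, hz⟩ := SF.{u}.exists_dg x.2
    have hz1 : z ^ q = 1 := funext fun i => by
      have := pow_card_eq_one' (G := Kˣ) (x := z i)
      rwa [Nat.card_units, hqe, Nat.add_sub_cancel] at this
    have hx1 : x ^ q = 1 := Subtype.ext (by
      rw [SubgroupClass.coe_pow, hz, ← SF.{u}.dgHom_apply, ← map_pow, hz1, map_one, OneMemClass.coe_one])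
    exact hx ▸ orderOf_dvd_of_pow_eq_one hx1
  have hfin : ∀ {ns : List ℕ}, (∀ i < 4, i ∈ J → i ∈ ns) →
      r ∣ Nat.card (chevF4.parabolicSubgroup K {i | i ∈ ns}) := fun hns =>
    hd.trans (Subgroup.card_dvd_of_le (sup_le le_sup_left (le_sup_of_le_right
      (Subgroup.closure_mono fun g ⟨j, hj, hj4, e⟩ => ⟨j, hns j hj4 hj, hj4, e⟩))))
  rw [h4, hqe]
  rcases hJ with hJ | hJ
  · have h := hfin (ns := [0, 3]) fun i hi hiJ => by rcases hJ i hi hiJ with rfl | rfl <;> simp
    rw [card_parabolic_of_words (by decide) (by decide) (by decide) check03] at h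
    simp only [List.map_cons, List.map_nil, List.sum_cons, List.sum_nil, hqe] at h
    rcases hr.dvd_mul.1 h with h | h
    · rcases hr.dvd_mul.1 h with h | h
      · exact dvd_mul_of_dvd_right (dvd_mul_of_dvd_left (dvd_mul_of_dvd_left (hdiag h) _) _) _
      · exact dvd_mul_of_dvd_left (hr.dvd_of_dvd_pow h) _
    · rw [show (q + 1) ^ 0 + ((q + 1) ^ 1 + ((q + 1) ^ 1 + ((q + 1) ^ 2 + 0))) = (q + 2) ^ 2 by ring] at h
      exact dvd_mul_of_dvd_right (dvd_mul_of_dvd_left (dvd_mul_of_dvd_right (hr.dvd_of_dvd_pow h) _) _) _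
  · have h := hfin (ns := [1, 2]) fun i hi hiJ => by rcases hJ i hi hiJ with rfl | rfl <;> simp
    rw [card_parabolic_of_words (by decide) (by decide) (by decide) check12] at h
    simp only [List.map_cons, List.map_nil, List.sum_cons, List.sum_nil, hqe] at h
    rcases hr.dvd_mul.1 h with h | h
    · rcases hr.dvd_mul.1 h with h | h
      · exact dvd_mul_of_dvd_right (dvd_mul_of_dvd_left (dvd_mul_of_dvd_left (hdiag h) _) _) _
      · exact dvd_mul_of_dvd_left (hr.dvd_of_dvd_pow h) _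
    · rw [show (q + 1) ^ 0 + ((q + 1) ^ 1 + ((q + 1) ^ 1 + ((q + 1) ^ 2 + ((q + 1) ^ 2 + ((q + 1) ^ 3 +
        ((q + 1) ^ 3 + ((q + 1) ^ 4 + 0))))))) = (q + 2) ^ 2 * (q ^ 2 + 2 * q + 2) by ring] at h
      rcases hr.dvd_mul.1 h with h | h
      · exact dvd_mul_of_dvd_right (dvd_mul_of_dvd_left (dvd_mul_of_dvd_right (hr.dvd_of_dvd_pow h) _) _) _
      · exact dvd_mul_of_dvd_right (dvd_mul_of_dvd_right h _) _

variable (m : ℕ) [CharP K 2]

theorem endo_injective : Function.Injective (twist K m).endo := by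
  show Function.Injective fun g => (Special.iso (K := K) DataF4.valid Special.specF4_valid inferInstance)
    (fieldAut chevF4 (frob m) g)
  exact (Special.iso_injective DataF4.valid Special.specF4_valid inferInstance).comp
    (fieldAut chevF4 (frob (K := K) m)).injective

theorem endo_radical (J : Set ℕ) {x : chevF4.group K}
    (hx : (x : GL chevF4.Idx K) ∈ chevF4.unipotentRadical K J) :
    ((twist K m).endo x : GL chevF4.Idx K) ∈ chevF4.unipotentRadical K (barNodes J) := by
  suffices h : chevF4.unipotentRadical K J ≤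
      (((chevF4.unipotentRadical K (barNodes J)).subgroupOf (chevF4.group K)).comap (twist K m).endo).map
        (chevF4.group K).subtype by
    obtain ⟨y, hy, e⟩ := h hx
    obtain rfl : y = x := Subtype.ext e
    exact hy
  rw [SF.{u}.unipotentRadical_eq geo]
  refine SF.{u}.genBy_le fun r h1 h2 h3 t => ⟨⟨SF.xU r t, SF.xU_mem_group r t⟩, ?_, rfl⟩
  show ((twist K m).endo ⟨_, _⟩ : GL chevF4.Idx K) ∈ chevF4.unipotentRadical K (barNodes J)
  rw [(twist K m).endo_xU ⟨r, h2⟩ t, SF.{u}.unipotentRadical_eq geo]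
  exact SF.{u}.xU_mem_genBy (((twist K m).bar_pos ⟨r, h2⟩).2 h1) (Fin.is_lt _)
    (fun h => h3 (inJ_bar J ⟨r, h2⟩ h)) _

/-- An element of `F₄(q)` fixed by the exchange and commuting with a fixed involution has order with
primes dividing `q (q⁴ - 1)`. -/
theorem prime_dvd_of_commute_involution {a b : chevF4.group K} (ha : orderOf a = 2)
    (haσ : (twist K m).endo a = a) (hab : b * a = a * b) {r : ℕ} (hr : r.Prime) (hrb : r ∣ orderOf b) :
    r ∣ Nat.card K * (Nat.card K ^ 4 - 1) := by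
  haveI := Sys.finite_GL (D := chevF4) (F := K)
  haveI : Fact (Nat.Prime 2) := ⟨Nat.prime_two⟩
  have hp : IsPGroup 2 (Subgroup.zpowers a) :=
    IsPGroup.of_card (n := 1) (by rw [Nat.card_zpowers, ha, pow_one])
  obtain ⟨R, haR, hRp, hRσ, hRb, hrad⟩ := CfsgLib.StableRadical.exists_stable_radical (twist K m).endo
    (endo_injective m) hp haσ (Subgroup.zpowers b) (fun c hc => by
      obtain ⟨k, rfl⟩ := Subgroup.mem_zpowers_iff.1 hc
      exact (Commute.zpow_left hab k).eq)
  have hne : R ≠ ⊥ := fun h => by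
    rw [h, Subgroup.mem_bot] at haR
    rw [haR, orderOf_one] at ha
    exact absurd ha (by norm_num)
  obtain ⟨g, J, hJ, hRJ, hNP⟩ := SF.{u}.exists_radical_eq geo (by decide) 2 hRp hne hrad
  set g' := (twist K m).endo g with hg'
  -- the exchange carries `U_J` into `U_{bar J}` conjugated by `h`
  set U : Set ℕ → Subgroup (chevF4.group K) :=
    fun L => (chevF4.unipotentRadical K L).subgroupOf (chevF4.group K) with hU
  have hUle : ∀ L, chevF4.unipotentRadical K L ≤ chevF4.group K := fun L => by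
    rw [SF.{u}.unipotentRadical_eq geo]
    exact (SF.{u}.genBy_le_pos _).trans SF.{u}.pos_le_group
  have hmap : ∀ L, (U L).map (twist K m).endo ≤ U (barNodes L) := fun L => by
    rintro _ ⟨x, hx, rfl⟩
    exact endo_radical m L hx
  have hbb : U (barNodes (barNodes J)) = U J := by
    have : chevF4.unipotentRadical K (barNodes (barNodes J)) = chevF4.unipotentRadical K J := by
      rw [SF.{u}.unipotentRadical_eq geo, SF.{u}.unipotentRadical_eq geo]
      have hiff : ∀ r, SF.{u}.InJ (barNodes (barNodes J)) r ↔ SF.{u}.InJ J r := fun r => by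
        refine and_congr_right fun _ => forall₂_congr fun i hi => ?_
        have hr4 : chevF4.rank = 4 := rfl
        rw [hr4] at hi
        have : i ∈ barNodes (barNodes J) ↔ i ∈ J := by
          simp only [barNodes, Set.mem_ofPred_eq]
          rw [show 3 - (3 - i) = i by omega]
          exact ⟨fun h => h.2.2, fun h => ⟨hi, by omega, h⟩⟩
        rw [this]
      exact le_antisymm (SF.{u}.genBy_mono fun r _ _ h => fun h' => h ((hiff r).2 h'))
        (SF.{u}.genBy_mono fun r _ _ h => fun h' => h ((hiff r).1 h'))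
    exact congrArg (fun V => Subgroup.subgroupOf V (chevF4.group K)) this
  have hcardle : ∀ L, Nat.card (U L) ≤ Nat.card (U (barNodes L)) := fun L => by
    rw [Nat.card_congr (Subgroup.equivMapOfInjective (U L) _ (endo_injective m)).toEquiv]
    exact Subgroup.card_le_of_le (hmap L)
  have hmapeq : (U J).map (twist K m).endo = U (barNodes J) := by
    refine Subgroup.eq_of_le_of_card_ge (hmap J) ?_
    rw [← Nat.card_congr (Subgroup.equivMapOfInjective (U J) _ (endo_injective m)).toEquiv]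
    exact le_of_le_of_eq (hcardle _) (congrArg (fun V : Subgroup (chevF4.group K) => Nat.card V) hbb)
  have hR1 : ∀ y, y ∈ R ↔ g⁻¹ * y * g ∈ U J := fun y => by rw [hRJ]; rfl
  have hR2 : ∀ y, y ∈ R ↔ g'⁻¹ * y * g' ∈ U (barNodes J) := fun y => by
    obtain ⟨z, rfl⟩ := Finite.surjective_of_injective (endo_injective (K := K) m) y
    rw [← hmapeq, hg', ← map_inv, ← map_mul, ← map_mul, Subgroup.mem_map_iff_mem (endo_injective m), ← hR1]
    conv_lhs => rw [← hRσ]
    exact Subgroup.mem_map_iff_mem (endo_injective m)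
  have hsym : chevF4.unipotentRadical K (barNodes J) = chevF4.unipotentRadical K J := by
    refine SF.{u}.radical_eq_of_conj geo J (barNodes J) (g := ((g⁻¹ * g' : chevF4.group K) : GL chevF4.Idx K))
      (Subtype.mem _) fun x => ?_
    have key : ∀ w : chevF4.group K, w ∈ U (barNodes J) ↔ (g⁻¹ * g') * w * (g⁻¹ * g')⁻¹ ∈ U J := fun w => by
      rw [show (g⁻¹ * g') * w * (g⁻¹ * g')⁻¹ = g⁻¹ * (g' * w * g'⁻¹) * g by group, ← hR1, hR2]
      refine iff_of_eq (congrArg (· ∈ _) ?_)
      group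
    constructor
    · intro hx
      exact (key ⟨x, hUle _ hx⟩).1 hx
    · intro hx
      have hxG : x ∈ chevF4.group K := by
        have := mul_mem (mul_mem (inv_mem (g⁻¹ * g').2) (hUle _ hx)) (g⁻¹ * g').2
        simpa [mul_assoc] using this
      exact (key ⟨x, hxG⟩).2 hx
  have hbar : ∀ i < 4, i ∈ J ↔ 3 - i ∈ J := fun i hi => by
    rw [SF.{u}.nodes_eq_of_radical_eq geo hsym (i := i) hi]
    exact ⟨fun h => h.2, fun h => ⟨hi, h⟩⟩
  have hshape : (∀ i < 4, i ∈ J → i = 0 ∨ i = 3) ∨ (∀ i < 4, i ∈ J → i = 1 ∨ i = 2) := by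
    obtain ⟨k, hk, hkJ⟩ := hJ
    replace hk : k < 4 := hk
    have h03 := hbar 0 (by norm_num)
    have h12 := hbar 1 (by norm_num)
    by_cases h1 : (1 : ℕ) ∈ J
    · refine Or.inr fun i hi hiJ => ?_
      rcases (show i = 0 ∨ i = 1 ∨ i = 2 ∨ i = 3 by omega) with rfl | rfl | rfl | rfl
      · rcases (show k = 0 ∨ k = 1 ∨ k = 2 ∨ k = 3 by omega) with rfl | rfl | rfl | rfl
        exacts [absurd hiJ hkJ, absurd h1 hkJ, absurd (h12.1 h1) hkJ, absurd (h03.1 hiJ) hkJ]
      · exact Or.inl rfl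
      · exact Or.inr rfl
      · rcases (show k = 0 ∨ k = 1 ∨ k = 2 ∨ k = 3 by omega) with rfl | rfl | rfl | rfl
        exacts [absurd (h03.2 hiJ) hkJ, absurd h1 hkJ, absurd (h12.1 h1) hkJ, absurd hiJ hkJ]
    · refine Or.inl fun i hi hiJ => ?_
      rcases (show i = 0 ∨ i = 1 ∨ i = 2 ∨ i = 3 by omega) with rfl | rfl | rfl | rfl
      exacts [Or.inl rfl, absurd hiJ h1, absurd (h12.2 hiJ) h1, Or.inr rfl]
  have hbP := hNP b (hRb (Subgroup.mem_zpowers b))
  refine prime_dvd_parabolic hshape hr ((hrb.trans ?_).trans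
    (Subgroup.orderOf_dvd_natCard _ hbP))
  rw [Subgroup.orderOf_coe]
  exact dvd_of_eq (by simpa using ((MulAut.conj g⁻¹).orderOf_eq b).symm)

end CfsgLib.Chev.Ree4
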